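import Mathlib

/-! Eigenvalues of elements of order three modulo scalars in SL(3,4). -/

set_option autoImplicit false

namespace Cfsg.Agent.ThreeEigen

open Matrix

variable {F : Type*} [Field F] [Fintype F]

theorem exists_eigen (N : Matrix (Fin 3) (Fin 3) F) (hd : N.det = 1)
    (hns : ∀ c : F, N ≠ diagonal fun _ => c) (r : F) (h3 : N * (N * N) = diagonal fun _ => r)
    (w : F) (hw3 : w ^ 3 = 1) (hw1 : w ≠ 1) (hF : Fintype.card F = 4) (k : Fin 3) :
    ∃ v : Fin 3 → F, v ≠ 0 ∧ N *ᵥ v = ![1, w, w ^ 2] k • v := by
  classical
  have hc : ∀ a : F, a ≠ 0 → a ^ 3 = 1 := fun a ha => by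
    have := FiniteField.pow_card_sub_one_eq_one a ha; rwa [hF] at this
  have h2 : (2 : F) = 0 := by
    have h4 : ((4 : ℕ) : F) = 0 := by rw [← hF]; exact Nat.cast_card_eq_zero F
    have : (2 : F) ^ 2 = 0 := by push_cast at h4; linear_combination h4
    exact eq_zero_of_pow_eq_zero this
  rw [← smul_one_eq_diagonal] at h3
  set t := N.trace
  set s := N 0 0 * N 1 1 - N 0 1 * N 1 0 + (N 0 0 * N 2 2 - N 0 2 * N 2 0)
    + (N 1 1 * N 2 2 - N 1 2 * N 2 1) with hs
  have hch : N * (N * N) - t • (N * N) + s • N - 1 = 0 := by
    rw [← one_smul F (1 : Matrix (Fin 3) (Fin 3) F), ← hd, det_fin_three]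
    ext i j
    fin_cases i <;> fin_cases j <;>
      simp [t, hs, mul_apply, Fin.sum_univ_three, trace_fin_three] <;> ring
  have htsr : t = 0 ∧ s = 0 ∧ r = 1 := by
    rw [h3] at hch
    by_cases hq : ∃ α β : F, N * N = α • N + β • (1 : Matrix (Fin 3) (Fin 3) F)
    · exfalso
      obtain ⟨α, β, hab⟩ := hq
      have indep : ∀ a b : F, a • N + b • (1 : Matrix (Fin 3) (Fin 3) F) = 0 → a = 0 ∧ b = 0 := by
        intro a b h
        have ha : a = 0 := by
          by_contra ha
          apply hns (-(a⁻¹ * b))
          rw [← smul_one_eq_diagonal]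
          have := congrArg (fun X => a⁻¹ • X) h
          simp only [smul_add, smul_smul, inv_mul_cancel₀ ha, one_smul, smul_zero] at this
          rw [neg_smul]; exact eq_neg_of_add_eq_zero_left this
        refine ⟨ha, ?_⟩
        rw [ha, zero_smul, zero_add] at h
        simpa using congrFun (congrFun h 0) 0
      have e3 : N * (N * N) = (α * α + β) • N + (α * β) • (1 : Matrix (Fin 3) (Fin 3) F) := by
        rw [hab, Matrix.mul_add, Matrix.mul_smul, Matrix.mul_smul, Matrix.mul_one, hab]; module
      obtain ⟨k1, k2⟩ := indep (α * α + β) (α * β - r) (by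
        rw [h3] at e3; rw [sub_smul]; linear_combination (norm := module) -e3)
      obtain ⟨-, k4⟩ := indep (-(t * α) + s) (r - t * β - 1) (by
        rw [hab] at hch; linear_combination (norm := module) hch)
      have htr : (N * N).trace = α * t + 3 * β := by
        rw [hab, trace_add, trace_smul, trace_smul, trace_one, Fintype.card_fin]
        simp [t]; ring
      have htr2 : (N * N).trace = t * t - 2 * s := by
        simp [t, hs, trace_fin_three, mul_apply, Fin.sum_univ_three]; ring
      have ha0 : α ≠ 0 := by
        intro h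
        have hb : β = 0 := by rw [h] at k1; simpa using k1
        have hN : N * N = 0 := by rw [hab, h, hb]; simp
        have := congrArg det hN
        rw [det_mul, hd, det_zero] at this; simp at this
      have hα := hc α ha0
      have hb : β = -(α * α) := by linear_combination k1
      have hr1 : r = 1 := by subst hb; linear_combination -k2 - hα - h2
      have ht0 : t = 0 := by
        have : t * (α * α) = 0 := by subst hb; linear_combination k4 - hr1
        exact (mul_eq_zero.1 this).resolve_right (mul_ne_zero ha0 ha0)
      have : (3 : F) * β = 0 := by linear_combination htr2 - htr - (α - t) * ht0 - s * h2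
      have h3' : (3 : F) = 1 := by linear_combination h2
      rw [h3', one_mul, hb, neg_eq_zero] at this
      exact mul_ne_zero ha0 ha0 this
    · push Not at hq
      have ht : t = 0 := by
        by_contra ht
        apply hq (t⁻¹ * s) (t⁻¹ * (r - 1))
        have := congrArg (fun X => t⁻¹ • X) hch
        simp only [smul_sub, smul_add, smul_smul, inv_mul_cancel₀ ht, one_smul, smul_zero] at this
        linear_combination (norm := module) -this
      rw [ht, zero_smul, sub_zero] at hch
      have hs0 : s = 0 := by
        by_contra hs0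
        apply hns (s⁻¹ * (1 - r))
        rw [← smul_one_eq_diagonal]
        have := congrArg (fun X => s⁻¹ • X) hch
        simp only [smul_sub, smul_add, smul_smul, inv_mul_cancel₀ hs0, one_smul, smul_zero] at this
        linear_combination (norm := module) this
      rw [hs0, zero_smul, add_zero, sub_eq_zero] at hch
      exact ⟨ht, hs0, by simpa using congrFun (congrFun hch 0) 0⟩
  obtain ⟨ht, hs0, -⟩ := htsr
  have ha : (![1, w, w ^ 2] k) ^ 3 = 1 := by
    fin_cases k <;> simp
    · exact hw3
    · linear_combination (w ^ 3 + 1) * hw3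
  set a := ![1, w, w ^ 2] k
  have hdet : (N - a • (1 : Matrix (Fin 3) (Fin 3) F)).det = 0 := by
    have : (N - a • (1 : Matrix (Fin 3) (Fin 3) F)).det = N.det - a * s + a ^ 2 * t - a ^ 3 := by
      simp [hs, t, det_fin_three, trace_fin_three]; ring
    rw [this, hd, hs0, ht, ha]; ring
  obtain ⟨v, hv0, hv⟩ := exists_mulVec_eq_zero_iff.2 hdet
  refine ⟨v, hv0, ?_⟩
  rw [sub_mulVec, smul_mulVec, one_mulVec, sub_eq_zero] at hv
  exact hv

end Cfsg.Agent.ThreeEigen
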